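import Cfsg.Agent.H580.Lsp.Cop
import Cfsg.Agent.S0000

/-!
# Coprime automorphisms of prime order of a simple group (helper580, task 1818), with the classification
-/

set_option autoImplicit false

namespace Cfsg.Agent.H580.Lsp

open Cfsg

universe u

theorem two_lt_card_fixed {M : Type u} [Group M] [Finite M] [IsSimpleGroup M] (hM : ¬ IsMulCommutative M)
    (φ : MulAut M) {r : ℕ} (hr : r.Prime) (hφ : orderOf φ = r) (hcop : ¬ r ∣ Nat.card M) :
    2 < Nat.card {x : M // φ x = x} :=
  two_lt_card_fixed_of (fun X _ _ _ => Cfsg.Agent.S0000.result) hM φ hr hφ hcop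

end Cfsg.Agent.H580.Lsp
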